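import Mathlib

/-!
# Twisted group algebra over `F_3` of a vector space over `F_2`, as matrices
-/

set_option autoImplicit false
set_option linter.style.haveILetI false
set_option linter.unusedSectionVars false

namespace Cfsg.Agent.H19.Cl

open Matrix

def eps (a : ZMod 2) : ZMod 3 := if a = 0 then 1 else -1

theorem eps_add : ∀ a b : ZMod 2, eps (a + b) = eps a * eps b := by decide
theorem eps_zero : eps 0 = 1 := rfl
theorem eps_mul_self : ∀ a : ZMod 2, eps a * eps a = 1 := by decide
theorem eps_ne : ∀ a : ZMod 2, eps a ≠ 0 := by decide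
theorem eps_inj : ∀ a b : ZMod 2, eps a = eps b → a = b := by decide
theorem exists_eps : ∀ c : ZMod 3, c ≠ 0 → ∃ s : ZMod 2, c = eps s := by decide
theorem eps_one_ne : eps 1 ≠ 1 := by decide

variable {W : Type} [AddCommGroup W] [Module (ZMod 2) W] [Fintype W] [DecidableEq W]
variable (β : W →ₗ[ZMod 2] W →ₗ[ZMod 2] ZMod 2)

theorem add_self (x : W) : x + x = 0 := by
  have h : (2 : ZMod 2) • x = 0 := by
    have : (2 : ZMod 2) = 0 := rfl
    rw [this, zero_smul]
  rwa [two_smul] at h

theorem z2_add_self (x : ZMod 2) : x + x = 0 := by revert x; decide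

theorem add_add_self (x y : W) : x + (x + y) = y := by rw [← add_assoc, add_self, zero_add]

/-- the polar form -/
def B (u v : W) : ZMod 2 := β u v + β v u

/-- the basic matrices -/
def E (u : W) : Matrix W W (ZMod 3) := Matrix.of fun x y => if x = u + y then eps (β u y) else 0

theorem E_apply (u x y : W) : E β u x y = if x = u + y then eps (β u y) else 0 := rfl

theorem E_mul (u v : W) : E β u * E β v = eps (β u v) • E β (u + v) := by
  ext x z
  rw [Matrix.mul_apply, Finset.sum_eq_single (v + z)]
  · rw [Matrix.smul_apply, E_apply, E_apply, E_apply, if_pos rfl, add_assoc]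
    by_cases hx : x = u + (v + z)
    · rw [if_pos hx, if_pos hx, map_add, map_add, LinearMap.add_apply, eps_add, eps_add, smul_eq_mul]
      ring
    · rw [if_neg hx, if_neg hx, zero_mul, smul_zero]
  · intro y _ hy
    rw [E_apply β v, if_neg hy, mul_zero]
  · intro h; exact absurd (Finset.mem_univ _) h

theorem E_zero : E β 0 = 1 := by
  ext x y
  rw [E_apply, zero_add, map_zero, LinearMap.zero_apply, eps_zero, Matrix.one_apply]

theorem E_col (u x : W) : E β u x 0 = if x = u then 1 else 0 := by
  rw [E_apply, add_zero, map_zero, eps_zero]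

theorem E_comm (w u : W) : E β w * E β u = eps (B β w u) • (E β u * E β w) := by
  rw [E_mul, E_mul, smul_smul, add_comm u w, B, eps_add, mul_assoc, eps_mul_self, mul_one]

/-- the inverse -/
def Ei (u : W) : Matrix W W (ZMod 3) := eps (β u u) • E β u

theorem E_mul_self (u : W) : E β u * E β u = eps (β u u) • (1 : Matrix W W (ZMod 3)) := by
  rw [E_mul, add_self, E_zero]

theorem E_mul_Ei (u : W) : E β u * Ei β u = 1 := by
  rw [Ei, Matrix.mul_smul, E_mul_self, smul_smul, eps_mul_self, one_smul]

theorem Ei_mul_E (u : W) : Ei β u * E β u = 1 := by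
  rw [Ei, Matrix.smul_mul, E_mul_self, smul_smul, eps_mul_self, one_smul]

theorem conj_E (w u : W) : E β w * E β u * Ei β w = eps (B β w u) • E β u := by
  rw [E_comm, Matrix.smul_mul, Matrix.mul_assoc, E_mul_Ei, Matrix.mul_one]

/-- the algebra -/
def A : Submodule (ZMod 3) (Matrix W W (ZMod 3)) := Submodule.span (ZMod 3) (Set.range (E β))

theorem E_mem (u : W) : E β u ∈ A β := Submodule.subset_span ⟨u, rfl⟩
theorem Ei_mem (u : W) : Ei β u ∈ A β := (A β).smul_mem _ (E_mem β u)

theorem mem_A_iff {M : Matrix W W (ZMod 3)} : M ∈ A β ↔ M = ∑ u, M u 0 • E β u := by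
  constructor
  · intro h
    obtain ⟨c, hc⟩ := (Submodule.mem_span_range_iff_exists_fun (ZMod 3)).1 h
    have key : ∀ u, M u 0 = c u := by
      intro u
      rw [← hc, Matrix.sum_apply, Finset.sum_eq_single u]
      · rw [Matrix.smul_apply, E_col, if_pos rfl, smul_eq_mul, mul_one]
      · intro v _ hv
        rw [Matrix.smul_apply, E_col, if_neg (Ne.symm hv), smul_zero]
      · intro h; exact absurd (Finset.mem_univ _) h
    conv_lhs => rw [← hc]
    exact Finset.sum_congr rfl fun u _ => by rw [key]
  · intro h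
    rw [h]
    exact Submodule.sum_mem _ fun u _ => (A β).smul_mem _ (E_mem β u)

theorem A_mul {M N : Matrix W W (ZMod 3)} (hM : M ∈ A β) (hN : N ∈ A β) : M * N ∈ A β := by
  rw [mem_A_iff] at hM hN
  rw [hM, hN, Finset.sum_mul]
  refine Submodule.sum_mem _ fun u _ => ?_
  rw [Finset.mul_sum]
  refine Submodule.sum_mem _ fun v _ => ?_
  rw [Matrix.smul_mul, Matrix.mul_smul, E_mul, smul_smul, smul_smul]
  exact (A β).smul_mem _ (E_mem β _)

theorem one_mem_A : (1 : Matrix W W (ZMod 3)) ∈ A β := by
  rw [← E_zero β]; exact E_mem β 0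

variable (hB : ∀ u : W, (∀ v, B β u v = 0) → u = 0)
include hB

theorem sum_eps {v : W} (hv : v ≠ 0) : ∑ u, eps (B β u v) = 0 := by
  have h1 : ∃ u₀, B β v u₀ ≠ 0 := by
    by_contra hc
    push Not at hc
    exact hv (hB v hc)
  obtain ⟨u₀, hu₀⟩ := h1
  have hu1 : B β u₀ v = 1 := by
    have : B β u₀ v = B β v u₀ := add_comm _ _
    rw [this]
    generalize B β v u₀ = x at hu₀
    revert x; decide
  have hlin : ∀ u, B β (u + u₀) v = B β u v + B β u₀ v := by
    intro u
    simp only [B, map_add, LinearMap.add_apply]; ring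
  have h2 : ∑ u, eps (B β (u + u₀) v) = ∑ u, eps (B β u v) :=
    Fintype.sum_equiv (Equiv.addRight u₀) _ _ fun u => rfl
  have h3 : ∑ u, eps (B β (u + u₀) v) = - ∑ u, eps (B β u v) := by
    rw [← Finset.sum_neg_distrib]
    refine Finset.sum_congr rfl fun u _ => ?_
    rw [hlin, hu1, eps_add]
    have : eps 1 = -1 := rfl
    rw [this, mul_neg_one]
  rw [h2] at h3
  generalize (∑ u, eps (B β u v)) = x at h3
  revert x; decide

/-- averaging -/
theorem avg {Z : Matrix W W (ZMod 3)} (hZ : Z ∈ A β) :
    ∑ u, E β u * Z * Ei β u = ((Fintype.card W : ZMod 3) * Z 0 0) • (1 : Matrix W W (ZMod 3)) := by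
  have h1 : ∀ u, E β u * Z * Ei β u = ∑ v, (Z v 0 * eps (B β u v)) • E β v := by
    intro u
    conv_lhs => rw [(mem_A_iff β).1 hZ]
    rw [Finset.mul_sum, Finset.sum_mul]
    refine Finset.sum_congr rfl fun v _ => ?_
    rw [Matrix.mul_smul, Matrix.smul_mul, conj_E, smul_smul]
  rw [Finset.sum_congr rfl fun u _ => h1 u, Finset.sum_comm, Finset.sum_eq_single 0]
  · rw [← Finset.sum_smul, E_zero, ← Finset.mul_sum]
    congr 1
    have : ∑ u : W, eps (B β u 0) = (Fintype.card W : ZMod 3) := by
      rw [Finset.sum_congr rfl (fun u _ => show eps (B β u 0) = 1 by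
        rw [B, map_zero, map_zero, LinearMap.zero_apply, add_zero, eps_zero]), Finset.sum_const,
        Finset.card_univ, nsmul_eq_mul, mul_one]
    rw [this, mul_comm]
  · intro v _ hv
    rw [← Finset.sum_smul, ← Finset.mul_sum, sum_eps β hB hv, mul_zero, zero_smul]
  · intro h; exact absurd (Finset.mem_univ _) h

end Cfsg.Agent.H19.Cl
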