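import Cfsg.Agent.H19.Cl1

/-!
# Skolem-Noether for the twisted group algebra
-/

set_option autoImplicit false
set_option linter.style.haveILetI false
set_option linter.unusedSectionVars false

namespace Cfsg.Agent.H19.Cl

open Matrix

variable {W : Type} [AddCommGroup W] [Module (ZMod 2) W] [Fintype W] [DecidableEq W]
variable (β : W →ₗ[ZMod 2] W →ₗ[ZMod 2] ZMod 2)

section twist

variable (g : W ≃ₗ[ZMod 2] W) (f : W → ZMod 2)

/-- twisted family -/
def E' (u : W) : Matrix W W (ZMod 3) := eps (f u) • E β (g u)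

def Ei' (u : W) : Matrix W W (ZMod 3) := eps (β u u) • E' β g f u

variable (hf : ∀ u v, f (u + v) = f u + f v + (β (g u) (g v) + β u v))

include hf

theorem f_zero : f 0 = 0 := by
  have := hf 0 0
  simp only [map_zero, add_zero] at this
  generalize f 0 = x at this
  revert x; decide

theorem E'_mul (u v : W) : E' β g f u * E' β g f v = eps (β u v) • E' β g f (u + v) := by
  rw [E', E', E', Matrix.smul_mul, Matrix.mul_smul, E_mul, smul_smul, smul_smul, smul_smul, map_add, hf,
    ← eps_add, ← eps_add, ← eps_add]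
  congr 2
  have h1 := z2_add_self (β u v)
  calc f u + f v + β (g u) (g v) = f u + f v + β (g u) (g v) + 0 := by ring
    _ = f u + f v + β (g u) (g v) + (β u v + β u v) := by rw [h1]
    _ = _ := by ring

theorem E'_zero : E' β g f 0 = 1 := by
  rw [E', f_zero β g f hf, map_zero, E_zero, eps_zero, one_smul]

theorem E'_mul_self (u : W) : E' β g f u * E' β g f u = eps (β u u) • (1 : Matrix W W (ZMod 3)) := by
  rw [E'_mul β g f hf, add_self, E'_zero β g f hf]

theorem Ei'_mul (u : W) : Ei' β g f u * E' β g f u = 1 := by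
  rw [Ei', Matrix.smul_mul, E'_mul_self β g f hf, smul_smul, eps_mul_self, one_smul]

omit hf in
theorem E'_mem (u : W) : E' β g f u ∈ A β := (A β).smul_mem _ (E_mem β _)

omit hf in
theorem Ei_add_mul (v u : W) : Ei β (v + u) * E β v = eps (β v u) • Ei β u := by
  have hvu : v + u + v = u := by rw [add_comm v u, add_assoc, add_self, add_zero]
  rw [Ei, Ei, Matrix.smul_mul, E_mul, smul_smul, smul_smul, hvu, ← eps_add, ← eps_add]
  congr 2
  simp only [map_add, LinearMap.add_apply]
  have h1 := z2_add_self (β v v)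
  have h2 := z2_add_self (β u v)
  calc β v v + β u v + (β v u + β u u) + (β v v + β u v)
      = (β v v + β v v) + (β u v + β u v) + (β v u + β u u) := by ring
    _ = _ := by rw [h1, h2, zero_add, zero_add]

/-- intertwiner -/
def T (X : Matrix W W (ZMod 3)) : Matrix W W (ZMod 3) := ∑ u, E' β g f u * X * Ei β u

theorem T_mul (X : Matrix W W (ZMod 3)) (v : W) : T β g f X * E β v = E' β g f v * T β g f X := by
  rw [T, Finset.sum_mul, Finset.mul_sum]
  refine (Fintype.sum_equiv (Equiv.addLeft v) _ _ fun u => ?_).symm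
  rw [Equiv.coe_addLeft, Matrix.mul_assoc (E' β g f (v + u) * X), Ei_add_mul, Matrix.mul_smul,
    ← Matrix.mul_assoc, ← Matrix.mul_assoc, E'_mul β g f hf, Matrix.smul_mul, Matrix.smul_mul]

theorem T_mul_Ei (X : Matrix W W (ZMod 3)) (v : W) : T β g f X * Ei β v = Ei' β g f v * T β g f X := by
  rw [Ei, Ei', Matrix.mul_smul, Matrix.smul_mul, T_mul β g f hf]

omit hf in
theorem T_mem {X : Matrix W W (ZMod 3)} (hX : X ∈ A β) : T β g f X ∈ A β :=
  Submodule.sum_mem _ fun u _ => A_mul β (A_mul β (E'_mem β g f u) hX) (Ei_mem β u)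

omit hf in
theorem Ei_E'_E (w u : W) : Ei β w * (E' β g f u * E β w) = eps (B β (g u) w) • E' β g f u := by
  rw [E', Matrix.smul_mul, E_comm, Matrix.mul_smul, Matrix.mul_smul, ← Matrix.mul_assoc, Ei_mul_E,
    Matrix.one_mul, smul_comm]

variable (hB : ∀ u : W, (∀ v, B β u v = 0) → u = 0) (hcard : (Fintype.card W : ZMod 3) ≠ 0)
include hB hcard

theorem exists_T_ne : ∃ w, T β g f (E β w) ≠ 0 := by
  by_contra hc
  push Not at hc
  have h1 : ∑ w, Ei β w * T β g f (E β w) = 0 := by
    refine Finset.sum_eq_zero fun w _ => ?_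
    rw [hc w, Matrix.mul_zero]
  have h2 : ∀ w, Ei β w * T β g f (E β w) = ∑ u, eps (B β (g u) w) • (E' β g f u * Ei β u) := by
    intro w
    rw [T, Finset.mul_sum]
    refine Finset.sum_congr rfl fun u _ => ?_
    rw [← Matrix.mul_assoc, Ei_E'_E, Matrix.smul_mul]
  rw [Finset.sum_congr rfl fun w _ => h2 w, Finset.sum_comm, Finset.sum_eq_single 0] at h1
  · rw [← Finset.sum_smul, E'_zero β g f hf, Matrix.one_mul, map_zero] at h1
    have h3 : ∑ w : W, eps (B β 0 w) = (Fintype.card W : ZMod 3) := by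
      rw [Finset.sum_congr rfl (fun u _ => show eps (B β 0 u) = 1 by
        rw [B, map_zero, map_zero, LinearMap.zero_apply, add_zero, eps_zero]), Finset.sum_const,
        Finset.card_univ, nsmul_eq_mul, mul_one]
    have h4 : Ei β (0 : W) = 1 := by
      rw [Ei, E_zero, map_zero, eps_zero, one_smul]
    rw [h3, h4] at h1
    have h5 := congrFun (congrFun h1 0) 0
    rw [Matrix.smul_apply, Matrix.one_apply_eq, smul_eq_mul, mul_one, Matrix.zero_apply] at h5
    exact hcard h5
  · intro u _ hu
    have hgu : g u ≠ 0 := fun h => hu (g.map_eq_zero_iff.1 h)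
    rw [← Finset.sum_smul]
    have h6 : ∑ w, eps (B β (g u) w) = 0 := by
      rw [← sum_eps β hB hgu]
      refine Finset.sum_congr rfl fun w _ => ?_
      rw [B, B, add_comm]
    rw [h6, zero_smul]
  · intro h; exact absurd (Finset.mem_univ _) h

theorem exists_unit : ∃ M : (Matrix W W (ZMod 3))ˣ, (M : Matrix W W (ZMod 3)) ∈ A β ∧
    ∀ v, (M : Matrix W W (ZMod 3)) * E β v = E' β g f v * M := by
  obtain ⟨w, hw⟩ := exists_T_ne β g f hf hB hcard
  set M := T β g f (E β w) with hM
  have hMA : M ∈ A β := T_mem β g f (E_mem β w)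
  obtain ⟨v, hv⟩ : ∃ v, M v 0 ≠ 0 := by
    by_contra hc
    push Not at hc
    apply hw
    rw [(mem_A_iff β).1 hMA]
    exact Finset.sum_eq_zero fun u _ => by rw [hc u, zero_smul]
  set N : Matrix W W (ZMod 3) := ∑ u, E β u * Ei β v * Ei' β g f u with hN
  have h1 : N * M = ((Fintype.card W : ZMod 3) * (Ei β v * M) 0 0) • (1 : Matrix W W (ZMod 3)) := by
    rw [← avg β hB (A_mul β (Ei_mem β v) hMA), hN, Finset.sum_mul]
    refine Finset.sum_congr rfl fun u _ => ?_
    rw [Matrix.mul_assoc, ← T_mul_Ei β g f hf]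
    simp only [Matrix.mul_assoc]
    rfl
  have h2 : (Ei β v * M) 0 0 = M v 0 := by
    rw [Ei, Matrix.smul_mul, Matrix.smul_apply, Matrix.mul_apply, Finset.sum_eq_single v]
    · rw [E_apply, if_pos (add_self v).symm, smul_eq_mul, ← mul_assoc, eps_mul_self, one_mul]
    · intro y _ hy
      rw [E_apply, if_neg, zero_mul]
      intro h
      apply hy
      have := congrArg (fun z => v + z) h
      simp only [add_zero, add_add_self] at this
      exact this.symm
    · intro h; exact absurd (Finset.mem_univ _) h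
  rw [h2] at h1
  have hc : (Fintype.card W : ZMod 3) * M v 0 ≠ 0 := mul_ne_zero hcard hv
  have h3 : (((Fintype.card W : ZMod 3) * M v 0)⁻¹ • N) * M = 1 := by
    rw [Matrix.smul_mul, h1, smul_smul, inv_mul_cancel₀ hc, one_smul]
  have h4 : M * (((Fintype.card W : ZMod 3) * M v 0)⁻¹ • N) = 1 := mul_eq_one_comm.1 h3
  exact ⟨⟨M, _, h4, h3⟩, hMA, fun v => T_mul β g f hf _ v⟩

end twist

end Cfsg.Agent.H19.Cl
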