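import Cfsg.Agent.H19.Cl2
import Cfsg.Agent.H29.XS4

/-!
# The group of units of the twisted group algebra inducing isometries in a given group
-/

set_option autoImplicit false
set_option linter.style.haveILetI false
set_option linter.unusedSectionVars false

namespace Cfsg.Agent.H19.Cl

open Matrix

variable {W : Type} [AddCommGroup W] [Module (ZMod 2) W] [Fintype W] [DecidableEq W]
variable (β : W →ₗ[ZMod 2] W →ₗ[ZMod 2] ZMod 2)
variable {K : Type*} [Group K] (ρ : Representation (ZMod 2) K W)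

/-- `±E_w` as a unit -/
def Eu (w : W) (s : ZMod 2) : (Matrix W W (ZMod 3))ˣ :=
  ⟨eps s • E β w, eps s • Ei β w, by
    rw [Matrix.smul_mul, Matrix.mul_smul, E_mul_Ei, smul_smul, eps_mul_self, one_smul], by
    rw [Matrix.smul_mul, Matrix.mul_smul, Ei_mul_E, smul_smul, eps_mul_self, one_smul]⟩

theorem Eu_val (w : W) (s : ZMod 2) : (Eu β w s : Matrix W W (ZMod 3)) = eps s • E β w := rfl

theorem Eu_mul (w w' : W) (s s' : ZMod 2) : Eu β w s * Eu β w' s' = Eu β (w + w') (s + s' + β w w') := by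
  apply Units.ext
  rw [Units.val_mul, Eu_val, Eu_val, Eu_val, Matrix.smul_mul, Matrix.mul_smul, E_mul, smul_smul, smul_smul,
    eps_add, eps_add, mul_assoc]

theorem Eu_zero : Eu β 0 0 = 1 := by
  apply Units.ext
  rw [Eu_val, E_zero, eps_zero, one_smul, Units.val_one]

theorem smul_E_inj {w w' : W} {s s' : ZMod 2} (h : eps s • E β w = eps s' • E β w') : w = w' ∧ s = s' := by
  have h1 := congrFun (congrFun h w) 0
  rw [Matrix.smul_apply, Matrix.smul_apply, E_col, E_col, if_pos rfl] at h1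
  by_cases hw : w = w'
  · rw [if_pos hw] at h1
    refine ⟨hw, eps_inj _ _ ?_⟩
    simpa using h1
  · exfalso
    rw [if_neg hw, smul_zero] at h1
    apply eps_ne s
    simpa using h1

theorem Eu_inj {w w' : W} {s s' : ZMod 2} (h : Eu β w s = Eu β w' s') : w = w' ∧ s = s' :=
  smul_E_inj β (congrArg Units.val h)

/-- `M` permutes the `E`'s up to sign as `k` does -/
def Acts (M : (Matrix W W (ZMod 3))ˣ) (k : K) : Prop :=
  ∀ u, ∃ s : ZMod 2, (M : Matrix W W (ZMod 3)) * E β u = eps s • (E β (ρ k u) * (M : Matrix W W (ZMod 3)))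

theorem Acts.mul {M M' : (Matrix W W (ZMod 3))ˣ} {k k' : K} (h : Acts β ρ M k) (h' : Acts β ρ M' k') :
    Acts β ρ (M * M') (k * k') := by
  intro u
  obtain ⟨s', hs'⟩ := h' u
  obtain ⟨s, hs⟩ := h (ρ k' u)
  refine ⟨s + s', ?_⟩
  rw [Units.val_mul, Matrix.mul_assoc, hs', Matrix.mul_smul, ← Matrix.mul_assoc, hs, Matrix.smul_mul,
    smul_smul, map_mul, eps_add, mul_comm (eps s), Matrix.mul_assoc]
  rfl

theorem Acts.one : Acts β ρ 1 1 := fun u => ⟨0, by
  rw [map_one, eps_zero, one_smul, Units.val_one, Matrix.one_mul, Matrix.mul_one]; rfl⟩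

theorem Acts.inv {M : (Matrix W W (ZMod 3))ˣ} {k : K} (h : Acts β ρ M k) : Acts β ρ M⁻¹ k⁻¹ := by
  intro v
  obtain ⟨s, hs⟩ := h (ρ k⁻¹ v)
  refine ⟨s, ?_⟩
  have e : ρ k (ρ k⁻¹ v) = v := by
    rw [← Module.End.mul_apply, ← map_mul, mul_inv_cancel, map_one, Module.End.one_apply]
  rw [e] at hs
  have h1 : E β v * (M : Matrix W W (ZMod 3)) = eps s • ((M : Matrix W W (ZMod 3)) * E β (ρ k⁻¹ v)) := by
    rw [hs, smul_smul, eps_mul_self, one_smul]
  calc ((M⁻¹ : (Matrix W W (ZMod 3))ˣ) : Matrix W W (ZMod 3)) * E β v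
      = (M⁻¹ : (Matrix W W (ZMod 3))ˣ) * (E β v * M) * (M⁻¹ : (Matrix W W (ZMod 3))ˣ) := by
        rw [Matrix.mul_assoc, Matrix.mul_assoc (E β v), Units.mul_inv, Matrix.mul_one]
    _ = eps s • (E β (ρ k⁻¹ v) * (M⁻¹ : (Matrix W W (ZMod 3))ˣ)) := by
        rw [h1, Matrix.mul_smul, Matrix.smul_mul, ← Matrix.mul_assoc, Units.inv_mul, Matrix.one_mul]

theorem Acts.unique (hρ : Function.Injective ρ) {M : (Matrix W W (ZMod 3))ˣ} {k k' : K} (h : Acts β ρ M k)
    (h' : Acts β ρ M k') : k = k' := by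
  apply hρ
  apply LinearMap.ext
  intro u
  obtain ⟨s, hs⟩ := h u
  obtain ⟨s', hs'⟩ := h' u
  rw [hs, ← Matrix.smul_mul, ← Matrix.smul_mul] at hs'
  have h1 : eps s • E β (ρ k u) = eps s' • E β (ρ k' u) := by
    have := congrArg (fun X => X * ((M⁻¹ : (Matrix W W (ZMod 3))ˣ) : Matrix W W (ZMod 3))) hs'
    simpa [Matrix.mul_assoc] using this
  exact (smul_E_inj β h1).1

theorem pow_mem_A {M : Matrix W W (ZMod 3)} (hM : M ∈ A β) : ∀ n : ℕ, M ^ n ∈ A β
  | 0 => by rw [pow_zero]; exact one_mem_A β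
  | n + 1 => by rw [pow_succ]; exact A_mul β (pow_mem_A hM n) hM

theorem inv_mem_A {M : (Matrix W W (ZMod 3))ˣ} (hM : (M : Matrix W W (ZMod 3)) ∈ A β) :
    ((M⁻¹ : (Matrix W W (ZMod 3))ˣ) : Matrix W W (ZMod 3)) ∈ A β := by
  have h1 : M⁻¹ = M ^ (orderOf M - 1) := by
    rw [inv_eq_iff_mul_eq_one, ← pow_succ']
    have : orderOf M - 1 + 1 = orderOf M := Nat.sub_add_cancel (orderOf_pos M)
    rw [this, pow_orderOf_eq_one]
  rw [h1, Units.val_pow_eq_pow_val]
  exact pow_mem_A β hM _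

/-- the group `R` -/
def R : Subgroup (Matrix W W (ZMod 3))ˣ where
  carrier := {M | (M : Matrix W W (ZMod 3)) ∈ A β ∧ ∃ k : K, Acts β ρ M k}
  mul_mem' := by
    rintro M M' ⟨h1, k, hk⟩ ⟨h1', k', hk'⟩
    exact ⟨A_mul β h1 h1', k * k', hk.mul β ρ hk'⟩
  one_mem' := ⟨one_mem_A β, 1, Acts.one β ρ⟩
  inv_mem' := by
    rintro M ⟨h1, k, hk⟩
    exact ⟨inv_mem_A β h1, k⁻¹, hk.inv β ρ⟩

/-- `R → K` -/
noncomputable def φ (hρ : Function.Injective ρ) : R β ρ →* K :=
  MonoidHom.mk' (fun M => M.2.2.choose) (fun M M' => by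
    have h1 := (M * M').2.2.choose_spec
    have h2 := (M.2.2.choose_spec).mul β ρ (M'.2.2.choose_spec)
    exact h1.unique β ρ hρ h2)

theorem φ_spec (hρ : Function.Injective ρ) (M : R β ρ) : Acts β ρ (M : (Matrix W W (ZMod 3))ˣ) (φ β ρ hρ M) :=
  M.2.2.choose_spec

theorem φ_eq (hρ : Function.Injective ρ) (M : R β ρ) {k : K}
    (h : Acts β ρ (M : (Matrix W W (ZMod 3))ˣ) k) : φ β ρ hρ M = k :=
  (φ_spec β ρ hρ M).unique β ρ hρ h

theorem Eu_acts (w : W) (s : ZMod 2) : Acts β ρ (Eu β w s) 1 := by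
  intro u
  refine ⟨B β w u, ?_⟩
  rw [Eu_val, map_one, Matrix.smul_mul, Matrix.mul_smul, E_comm, smul_comm]
  rfl

def Er (w : W) (s : ZMod 2) : R β ρ :=
  ⟨Eu β w s, (A β).smul_mem _ (E_mem β w), 1, Eu_acts β ρ w s⟩

theorem Er_mul (w w' : W) (s s' : ZMod 2) :
    Er β ρ w s * Er β ρ w' s' = Er β ρ (w + w') (s + s' + β w w') := Subtype.ext (Eu_mul β w w' s s')

theorem Er_zero : Er β ρ 0 0 = 1 := Subtype.ext (Eu_zero β)

theorem Er_inj {w w' : W} {s s' : ZMod 2} (h : Er β ρ w s = Er β ρ w' s') : w = w' ∧ s = s' :=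
  Eu_inj β (congrArg Subtype.val h)

theorem Er_mem (hρ : Function.Injective ρ) (w : W) (s : ZMod 2) : Er β ρ w s ∈ (φ β ρ hρ).ker := by
  rw [MonoidHom.mem_ker]
  exact φ_eq β ρ hρ _ (Eu_acts β ρ w s)

variable (hB : ∀ u : W, (∀ v, B β u v = 0) → u = 0)
include hB

theorem exists_Er (hρ : Function.Injective ρ) (M : R β ρ) (hM : M ∈ (φ β ρ hρ).ker) :
    ∃ w s, M = Er β ρ w s := by
  have h1 := φ_spec β ρ hρ M
  rw [MonoidHom.mem_ker] at hM
  rw [hM] at h1
  have hA := M.2.1
  set X : Matrix W W (ZMod 3) := ((M : (Matrix W W (ZMod 3))ˣ) : Matrix W W (ZMod 3)) with hX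
  have hexp := (mem_A_iff β).1 hA
  obtain ⟨w, hw⟩ : ∃ w, X w 0 ≠ 0 := by
    by_contra hc
    push Not at hc
    have h0 : X = 0 := by
      rw [hexp]
      exact Finset.sum_eq_zero fun u _ => by rw [hc u, zero_smul]
    have h2 : X * ((((M : (Matrix W W (ZMod 3))ˣ))⁻¹ : (Matrix W W (ZMod 3))ˣ) : Matrix W W (ZMod 3)) = 1 :=
      Units.mul_inv _
    rw [h0, Matrix.zero_mul] at h2
    have h3 := congrFun (congrFun h2 0) 0
    rw [Matrix.one_apply_eq, Matrix.zero_apply] at h3
    exact zero_ne_one h3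
  have key : ∀ v, v ≠ w → X v 0 = 0 := by
    intro v hv
    by_contra hne
    apply hv
    have h3 : v + w = 0 := by
      apply hB
      intro u
      obtain ⟨s, hs⟩ := h1 u
      rw [map_one] at hs
      have hs' : X * E β u = eps s • (E β u * X) := hs
      -- compare coefficients
      have hl : X * E β u = ∑ t, (X t 0 * eps (B β t u)) • (E β u * E β t) := by
        conv_lhs => rw [hexp]
        rw [Finset.sum_mul]
        refine Finset.sum_congr rfl fun t _ => ?_
        rw [Matrix.smul_mul, E_comm, smul_smul]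
      have hr : eps s • (E β u * X) = ∑ t, (eps s * X t 0) • (E β u * E β t) := by
        conv_lhs => rw [hexp]
        rw [Finset.mul_sum, Finset.smul_sum]
        refine Finset.sum_congr rfl fun t _ => ?_
        rw [Matrix.mul_smul, smul_smul]
      rw [hl, hr] at hs'
      have hcoef : ∀ t, X t 0 * eps (B β t u) = eps s * X t 0 := by
        have h4 : ∑ t, (X t 0 * eps (B β t u)) • E β t = ∑ t, (eps s * X t 0) • E β t := by
          have h5 := congrArg (fun Z => Ei β u * Z) hs'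
          simp only [Finset.mul_sum, Matrix.mul_smul] at h5
          have h6 : ∀ t, Ei β u * (E β u * E β t) = E β t := by
            intro t; rw [← Matrix.mul_assoc, Ei_mul_E, Matrix.one_mul]
          simpa only [h6] using h5
        intro t
        have h7 := congrFun (congrFun h4 t) 0
        rw [Matrix.sum_apply, Matrix.sum_apply, Finset.sum_eq_single t, Finset.sum_eq_single t] at h7
        · simpa [Matrix.smul_apply, E_col] using h7
        · intro t' _ ht'
          rw [Matrix.smul_apply, E_col, if_neg (Ne.symm ht'), smul_zero]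
        · intro h; exact absurd (Finset.mem_univ _) h
        · intro t' _ ht'
          rw [Matrix.smul_apply, E_col, if_neg (Ne.symm ht'), smul_zero]
        · intro h; exact absurd (Finset.mem_univ _) h
      have hw2 : eps (B β w u) = eps s := by
        have := hcoef w
        rw [mul_comm (eps s)] at this
        exact mul_left_cancel₀ hw this
      have hv2 : eps (B β v u) = eps s := by
        have := hcoef v
        rw [mul_comm (eps s)] at this
        exact mul_left_cancel₀ hne this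
      have h8 : B β v u = B β w u := eps_inj _ _ (hv2.trans hw2.symm)
      have h9 : B β (v + w) u = B β v u + B β w u := by
        simp only [B, map_add, LinearMap.add_apply]; ring
      rw [h9, h8]
      exact z2_add_self _
    have h4 := congrArg (fun z => z + w) h3
    simp only [zero_add, add_assoc, add_self, add_zero] at h4
    exact h4
  obtain ⟨s, hs⟩ := exists_eps _ hw
  refine ⟨w, s, Subtype.ext (Units.ext ?_)⟩
  show X = eps s • E β w
  rw [hexp, Finset.sum_eq_single w, hs]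
  · intro t _ ht
    rw [key t ht, zero_smul]
  · intro h; exact absurd (Finset.mem_univ _) h

end Cfsg.Agent.H19.Cl
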