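import Cfsg.Agent.H19.Cl3

/-!
# Extraspecial extensions realizing orthogonal modules
-/

set_option autoImplicit false
set_option linter.style.haveILetI false
set_option linter.unusedSectionVars false

namespace Cfsg.Agent.H19.Cl

open Matrix

theorem exists_f {m : ℕ} (a : (Fin m → ZMod 2) →ₗ[ZMod 2] (Fin m → ZMod 2) →ₗ[ZMod 2] ZMod 2)
    (ha : ∀ u, a u u = 0) : ∃ f : (Fin m → ZMod 2) → ZMod 2, ∀ u v, f (u + v) = f u + f v + a u v := by
  classical
  have hsym : ∀ x y, a x y = a y x := by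
    intro x y
    have h1 := ha (x + y)
    simp only [map_add, LinearMap.add_apply, ha, add_zero, zero_add] at h1
    have h2 : a x y + a x y = 0 := z2_add_self _
    have h3 : a x y + (a y x + a x y) = a x y + 0 := by rw [h1]
    rw [add_comm (a y x), ← add_assoc, h2, zero_add, add_zero] at h3
    exact h3.symm
  set e : Fin m → (Fin m → ZMod 2) := fun i j => if i = j then 1 else 0 with he
  have hexp : ∀ u v, a u v = ∑ i, ∑ j, a (e i) (e j) * (u i * v j) := by
    intro u v
    rw [LinearMap.pi_apply_eq_sum_univ a u, LinearMap.sum_apply]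
    refine Finset.sum_congr rfl fun i _ => ?_
    rw [LinearMap.smul_apply, LinearMap.pi_apply_eq_sum_univ _ v, smul_eq_mul, Finset.mul_sum]
    refine Finset.sum_congr rfl fun j _ => ?_
    rw [smul_eq_mul]; ring
  refine ⟨fun u => ∑ i, ∑ j, if i < j then a (e i) (e j) * (u i * u j) else 0, fun u v => ?_⟩
  have h1 : (∑ i, ∑ j, if i < j then a (e i) (e j) * ((u + v) i * (u + v) j) else 0) =
      (∑ i, ∑ j, if i < j then a (e i) (e j) * (u i * u j) else 0) +
      (∑ i, ∑ j, if i < j then a (e i) (e j) * (v i * v j) else 0) +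
      ((∑ i, ∑ j, if i < j then a (e i) (e j) * (u i * v j) else 0) +
       (∑ i, ∑ j, if i < j then a (e i) (e j) * (v i * u j) else 0)) := by
    simp only [← Finset.sum_add_distrib]
    refine Finset.sum_congr rfl fun i _ => Finset.sum_congr rfl fun j _ => ?_
    by_cases hij : i < j
    · simp only [if_pos hij, Pi.add_apply]; ring
    · simp only [if_neg hij, add_zero]
  have h2 : (∑ i, ∑ j, if i < j then a (e i) (e j) * (v i * u j) else 0) =
      ∑ i, ∑ j, if j < i then a (e i) (e j) * (u i * v j) else 0 := by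
    rw [Finset.sum_comm]
    refine Finset.sum_congr rfl fun i _ => Finset.sum_congr rfl fun j _ => ?_
    rw [hsym (e j) (e i)]
    by_cases hij : j < i
    · simp only [if_pos hij]; ring
    · simp only [if_neg hij]
  beta_reduce
  rw [h1, h2, hexp u v]
  congr 1
  simp only [← Finset.sum_add_distrib]
  refine Finset.sum_congr rfl fun i _ => Finset.sum_congr rfl fun j _ => ?_
  rcases lt_trichotomy i j with h | h | h
  · rw [if_pos h, if_neg (not_lt.2 h.le), add_zero]
  · subst h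
    rw [if_neg (lt_irrefl _), ha, zero_mul, add_zero]
  · rw [if_neg (not_lt.2 h.le), if_pos h, zero_add]

section

variable {m : ℕ}
variable (β : (Fin m → ZMod 2) →ₗ[ZMod 2] (Fin m → ZMod 2) →ₗ[ZMod 2] ZMod 2)
variable {K : Type*} [Group K] (ρ : Representation (ZMod 2) K (Fin m → ZMod 2))

theorem φ_surj (hρ : Function.Injective ρ) (hB : ∀ u, (∀ v, B β u v = 0) → u = 0)
    (hq : ∀ k u, β (ρ k u) (ρ k u) = β u u) : Function.Surjective (φ β ρ hρ) := by
  intro k
  have e1 : (ρ k).comp (ρ k⁻¹) = LinearMap.id := by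
    rw [← Module.End.mul_eq_comp, ← map_mul, mul_inv_cancel, map_one]; rfl
  have e2 : (ρ k⁻¹).comp (ρ k) = LinearMap.id := by
    rw [← Module.End.mul_eq_comp, ← map_mul, inv_mul_cancel, map_one]; rfl
  set g : (Fin m → ZMod 2) ≃ₗ[ZMod 2] (Fin m → ZMod 2) := LinearEquiv.ofLinearMap (ρ k) (ρ k⁻¹) e1 e2 with hg
  have hgk : ∀ u, g u = ρ k u := fun u => rfl
  obtain ⟨f, hf⟩ := exists_f (β.compl₁₂ (ρ k) (ρ k) + β) (by
    intro u
    rw [LinearMap.add_apply, LinearMap.add_apply, LinearMap.compl₁₂_apply, hq]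
    exact z2_add_self _)
  have hcard : (Fintype.card (Fin m → ZMod 2) : ZMod 3) ≠ 0 := by
    rw [Fintype.card_pi, Finset.prod_const, ZMod.card, Nat.cast_pow]
    exact pow_ne_zero _ (by decide)
  obtain ⟨M, hM, hME⟩ := exists_unit β g f (fun u v => by
    rw [hf]; rfl) hB hcard
  have hact : Acts β ρ M k := by
    intro u
    refine ⟨f u, ?_⟩
    rw [hME u, E', Matrix.smul_mul]
    rfl
  exact ⟨⟨M, hM, k, hact⟩, φ_eq β ρ hρ _ hact⟩

variable (hρ : Function.Injective ρ) (hB : ∀ u, (∀ v, B β u v = 0) → u = 0)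

theorem er_comm (w w' : Fin m → ZMod 2) (s s' : ZMod 2) :
    Er β ρ w s * Er β ρ w' s' = Er β ρ 0 (B β w w') * (Er β ρ w' s' * Er β ρ w s) := by
  rw [Er_mul, Er_mul, Er_mul, map_zero, LinearMap.zero_apply, add_zero, zero_add, add_comm w' w]
  congr 1
  rw [B]
  have := z2_add_self (β w' w)
  calc s + s' + β w w' = s + s' + β w w' + 0 := by ring
    _ = s + s' + β w w' + (β w' w + β w' w) := by rw [this]
    _ = _ := by ring

include hρ hB

theorem xs (hm : 0 < m) : H29.XS (φ β ρ hρ).ker (Er β ρ 0 1) := by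
  have hz2 : Er β ρ 0 1 * Er β ρ 0 1 = 1 := by
    rw [Er_mul, add_zero, map_zero, add_zero, ← Er_zero]; rfl
  refine H29.XS.mk' ?_ ?_ hz2 (Er_mem β ρ hρ 0 1) ?_ ?_ ?_ ?_ ?_
  · intro x
    refine ⟨2, ?_⟩
    obtain ⟨w, s, hx⟩ := exists_Er β ρ hB hρ x x.2
    apply Subtype.ext
    have h2 : Er β ρ w s * Er β ρ w s = Er β ρ 0 (β w w) := by
      rw [Er_mul, add_self, z2_add_self, zero_add]
    rw [Subgroup.coe_pow, hx, show (2 : ℕ) ^ 2 = 2 * 2 by norm_num, pow_mul, pow_two, pow_two, h2, Er_mul,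
      add_zero, map_zero, add_zero, z2_add_self, Er_zero]
    rfl
  · intro h
    rw [← Er_zero] at h
    exact absurd (Er_inj β ρ h).2 (by decide)
  · intro x hx
    obtain ⟨w, s, rfl⟩ := exists_Er β ρ hB hρ x hx
    rw [er_comm, show B β w 0 = 0 by rw [B, map_zero, map_zero, LinearMap.zero_apply, add_zero], Er_zero, one_mul]
  · intro x hx hcom
    obtain ⟨w, s, rfl⟩ := exists_Er β ρ hB hρ x hx
    have hw : w = 0 := by
      apply hB
      intro v
      have h1 := hcom _ (Er_mem β ρ hρ v 0)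
      rw [er_comm] at h1
      have h2 : Er β ρ 0 (B β w v) = 1 := by
        have := congrArg (fun z => z * (Er β ρ v 0 * Er β ρ w s)⁻¹) h1
        simpa only [mul_inv_cancel_right, mul_inv_cancel] using this
      rw [← Er_zero] at h2
      exact (Er_inj β ρ h2).2
    subst hw
    have : ∀ s : ZMod 2, s = 0 ∨ s = 1 := by decide
    rcases this s with rfl | rfl
    · left; exact Er_zero β ρ
    · right; rfl
  · intro x hx y hy
    obtain ⟨w, s, rfl⟩ := exists_Er β ρ hB hρ x hx
    obtain ⟨w', s', rfl⟩ := exists_Er β ρ hB hρ y hy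
    rw [er_comm]
    have : ∀ s : ZMod 2, s = 0 ∨ s = 1 := by decide
    rcases this (B β w w') with h | h
    · left; rw [h, Er_zero, one_mul]
    · right; rw [h]
  · intro x hx
    obtain ⟨w, s, rfl⟩ := exists_Er β ρ hB hρ x hx
    rw [Er_mul, add_self, z2_add_self, zero_add]
    have : ∀ s : ZMod 2, s = 0 ∨ s = 1 := by decide
    rcases this (β w w) with h | h
    · left; rw [h, Er_zero]
    · right; rw [h]
  · have hw : (fun _ => 1 : Fin m → ZMod 2) ≠ 0 := by
      intro h
      have := congrFun h ⟨0, hm⟩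
      exact one_ne_zero (α := ZMod 2) this
    obtain ⟨v, hv⟩ : ∃ v, B β (fun _ => 1) v ≠ 0 := by
      by_contra hc
      push Not at hc
      exact hw (hB _ hc)
    refine ⟨_, Er_mem β ρ hρ (fun _ => 1) 0, _, Er_mem β ρ hρ v 0, ?_⟩
    rw [er_comm]
    intro h
    have h2 : Er β ρ 0 (B β (fun _ => 1) v) = 1 := by
      have := congrArg (fun z => z * (Er β ρ v 0 * Er β ρ (fun _ => 1) 0)⁻¹) h
      simpa only [mul_inv_cancel_right, mul_inv_cancel] using this
    rw [← Er_zero] at h2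
    exact hv (Er_inj β ρ h2).2

/-- the map `Q → W` -/
noncomputable def χ : (φ β ρ hρ).ker →* Multiplicative (Fin m → ZMod 2) :=
  MonoidHom.mk' (fun M => Multiplicative.ofAdd (exists_Er β ρ hB hρ M M.2).choose) (fun M M' => by
    have h1 := (exists_Er β ρ hB hρ M M.2).choose_spec
    have h2 := (exists_Er β ρ hB hρ M' M'.2).choose_spec
    have h3 := (exists_Er β ρ hB hρ (M * M' : (φ β ρ hρ).ker) (M * M' : (φ β ρ hρ).ker).2).choose_spec
    obtain ⟨s, h1⟩ := h1
    obtain ⟨s', h2⟩ := h2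
    obtain ⟨s'', h3⟩ := h3
    rw [← ofAdd_add]
    refine congrArg Multiplicative.ofAdd ?_
    have h4 : ((M * M' : (φ β ρ hρ).ker) : R β ρ) =
        Er β ρ ((exists_Er β ρ hB hρ M M.2).choose + (exists_Er β ρ hB hρ M' M'.2).choose)
          (s + s' + β (exists_Er β ρ hB hρ M M.2).choose (exists_Er β ρ hB hρ M' M'.2).choose) := by
      rw [← Er_mul, ← h1, ← h2]; rfl
    rw [h3] at h4
    exact (Er_inj β ρ h4).1)

theorem χ_spec (M : (φ β ρ hρ).ker) :
    ∃ s, (M : R β ρ) = Er β ρ (Multiplicative.toAdd (χ β ρ hρ hB M)) s :=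
  (exists_Er β ρ hB hρ M M.2).choose_spec

theorem χ_eq (M : (φ β ρ hρ).ker) {w : Fin m → ZMod 2} {s : ZMod 2} (h : (M : R β ρ) = Er β ρ w s) :
    Multiplicative.toAdd (χ β ρ hρ hB M) = w := by
  obtain ⟨s', hs⟩ := χ_spec β ρ hρ hB M
  rw [h] at hs
  exact (Er_inj β ρ hs).1.symm

end

end Cfsg.Agent.H19.Cl
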