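import Cfsg.Agent.H19.FF9
import Cfsg.Agent.H23.Subnormal
import Cfsg.Agent.H10.Basic

set_option autoImplicit false
set_option linter.style.haveILetI false
set_option linter.unusedVariables false
set_option linter.unusedSectionVars false

/-! Failure of factorization, part 10: two subnormal subgroups acting irreducibly. -/

namespace Cfsg.Agent.H19.FF

open Cfsg Cfsg.Agent.H19.PGV
open scoped commutatorElement

variable {X W : Type*} [Group X] [AddCommGroup W] [DistribMulAction X W]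

/-- irreducibility of the commutator module -/
def Irr (W : Type*) [AddCommGroup W] [DistribMulAction X W] (E : Subgroup X) : Prop :=
  ∀ U : AddSubgroup W, U ≤ comS W E → (∀ g ∈ E, ∀ u ∈ U, g • u ∈ U) → U = ⊥ ∨ U = comS W E

/-- image of a subgroup -/
def sm (g : X) (U : AddSubgroup W) : AddSubgroup W := U.map (DistribSMul.toAddMonoidHom W g)

theorem mem_sm {g : X} {U : AddSubgroup W} {w : W} : w ∈ sm g U ↔ ∃ u ∈ U, g • u = w := Iff.rfl

theorem sm_mem {g : X} {U : AddSubgroup W} {u : W} (hu : u ∈ U) : g • u ∈ sm g U := ⟨u, hu, rfl⟩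

theorem sm_one (U : AddSubgroup W) : sm (1 : X) U = U := by
  ext w; rw [mem_sm]; simp

theorem sm_mul (g h : X) (U : AddSubgroup W) : sm (g * h) U = sm g (sm h U) := by
  ext w
  rw [mem_sm, mem_sm]
  constructor
  · rintro ⟨u, hu, rfl⟩
    exact ⟨h • u, sm_mem hu, by rw [mul_smul]⟩
  · rintro ⟨_, ⟨u, hu, rfl⟩, rfl⟩
    exact ⟨u, hu, mul_smul g h u⟩

theorem sm_inv {g : X} {U : AddSubgroup W} (h : sm g U = U) : sm g⁻¹ U = U := by
  conv_lhs => rw [← h]
  rw [← sm_mul, inv_mul_cancel, sm_one]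

theorem sm_comS (g : X) (E : Subgroup X) : sm g (comS W E) = comS W (PGV.cj g E) := by
  apply le_antisymm
  · rintro _ ⟨u, hu, rfl⟩
    have h1 : comS W E ≤ (comS W (PGV.cj g E)).comap (DistribSMul.toAddMonoidHom W g) := by
      rw [comS_le]
      intro x hx v
      show g • (x • v - v) ∈ comS W (PGV.cj g E)
      have e : g • (x • v - v) = (g * x * g⁻¹) • (g • v) - g • v := by
        rw [smul_sub, mul_smul, mul_smul, inv_smul_smul]
      rw [e]
      exact mem_comS (cj_mem g hx) _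
    exact h1 hu
  · rw [comS_le]
    intro x hx w
    obtain ⟨y, hy, rfl⟩ := mem_cj.mp hx
    refine ⟨y • (g⁻¹ • w) - g⁻¹ • w, mem_comS hy _, ?_⟩
    show g • (y • (g⁻¹ • w) - g⁻¹ • w) = (g * y * g⁻¹) • w - w
    rw [smul_sub, mul_smul, mul_smul, smul_inv_smul]

theorem comS_inv_mem {E : Subgroup X} {g : X} (hg : g ∈ E) {u : W} (hu : u ∈ comS W E) : g • u ∈ comS W E := by
  have : g • u = (g • u - u) + u := by abel
  rw [this]
  exact AddSubgroup.add_mem _ (mem_comS hg u) hu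

theorem sm_comS_self {E : Subgroup X} {g : X} (hg : g ∈ E) : sm g (comS W E) = comS W E := by
  apply le_antisymm
  · rintro _ ⟨u, hu, rfl⟩
    exact comS_inv_mem hg hu
  · intro u hu
    exact ⟨g⁻¹ • u, comS_inv_mem (E.inv_mem hg) hu, smul_inv_smul g u⟩

theorem stabP_pow' {p : ℕ} (hpW : ∀ w : W, p • w = 0) (hf : ∀ g : X, (∀ w : W, g • w = w) → g = 1) {P : AddSubgroup W}
    {z : X} (hz : z ∈ stabP (X := X) P) : z ^ p = 1 := by
  apply hf
  intro w
  have h1 : ∀ k : ℕ, z ^ k • w = w + k • (z • w - w) := by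
    intro k
    induction k with
    | zero => simp
    | succ k ih =>
      have e : z • (k • (z • w - w)) = k • (z • w - w) := hz.1 _ (P.nsmul_mem (hz.2 w) k)
      rw [pow_succ', mul_smul, ih, smul_add, e, succ_nsmul]
      abel
  rw [h1, hpW, add_zero]

theorem le_pCore_of_subnormal [Finite X] {p : ℕ} [Fact p.Prime] {P : Subgroup X} (hP : P.IsSubnormal) (hp : IsPGroup p P) :
    P ≤ pCore p X := by
  have h1 := H10.pCore_map_subtype p hP
  have h2 : pCore p ↥P = ⊤ := by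
    rw [eq_top_iff]
    refine le_sSup ⟨inferInstance, ?_⟩
    exact hp.of_equiv Subgroup.topEquiv.symm
  rw [h2, ← MonoidHom.range_eq_map, Subgroup.range_subtype] at h1
  exact h1.le.trans inf_le_left

/-- stabilizers of invariant submodules are trivial -/
theorem stab_triv [Finite X] {p : ℕ} [Fact p.Prime] (hpW : ∀ w : W, p • w = 0)
    (hf : ∀ g : X, (∀ w : W, g • w = w) → g = 1) (hO : pCore p X = ⊥) {S : Subgroup X} (hS : S.IsSubnormal)
    {P : AddSubgroup W} (hP : ∀ g ∈ S, ∀ u ∈ P, g • u ∈ P) {z : X} (hz : z ∈ S) (hzP : z ∈ stabP (X := X) P) : z = 1 := by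
  have h1 : IsPGroup p ↥(S ⊓ stabP (X := X) P) := by
    rintro ⟨g, hg⟩
    refine ⟨1, Subtype.ext ?_⟩
    show g ^ (p ^ 1) = 1
    rw [pow_one]
    exact stabP_pow' hpW hf hg.2
  have h2 : (S ⊓ stabP (X := X) P).IsSubnormal := by
    apply H23.IsSubnormal.of_le_normalizer hS inf_le_left
    have key : ∀ x ∈ S, ∀ y ∈ S ⊓ stabP (X := X) P, x * y * x⁻¹ ∈ S ⊓ stabP (X := X) P := by
      intro x hx y hy
      refine ⟨S.mul_mem (S.mul_mem hx hy.1) (S.inv_mem hx), fun u hu => ?_, fun w => ?_⟩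
      · rw [mul_smul, mul_smul, hy.2.1 _ (hP _ (S.inv_mem hx) u hu), smul_inv_smul]
      · have : (x * y * x⁻¹) • w - w = x • (y • (x⁻¹ • w) - x⁻¹ • w) := by
          rw [mul_smul, mul_smul, smul_sub, smul_inv_smul]
        rw [this]
        exact hP x hx _ (hy.2.2 _)
    intro x hx
    rw [Subgroup.mem_normalizer_iff]
    intro y
    refine ⟨key x hx y, fun h => ?_⟩
    have := key x⁻¹ (S.inv_mem hx) _ h
    have e : x⁻¹ * (x * y * x⁻¹) * x⁻¹⁻¹ = y := by group
    rwa [e] at this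
  have h3 := le_pCore_of_subnormal h2 h1
  rw [hO] at h3
  exact Subgroup.mem_bot.mp (h3 ⟨hz, hzP⟩)

section main

variable [Finite X] [Finite W] {p : ℕ} [Fact p.Prime]

/-- a subnormal subgroup acts faithfully on its commutator module -/
theorem faith_com (hpW : ∀ w : W, p • w = 0) (hf : ∀ g : X, (∀ w : W, g • w = w) → g = 1) (hO : pCore p X = ⊥)
    {E : Subgroup X} (hE : E.IsSubnormal) {z : X} (hz : z ∈ E) (hz2 : ∀ u ∈ comS W E, z • u = u) : z = 1 :=
  stab_triv hpW hf hO hE (P := comS W E) (fun g hg u hu => comS_inv_mem hg hu) hz ⟨hz2, fun w => mem_comS hz w⟩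

/-- case b -/
theorem sub_case_b (hpW : ∀ w : W, p • w = 0) (hf : ∀ g : X, (∀ w : W, g • w = w) → g = 1) (hO : pCore p X = ⊥)
    {E₁ E₂ : Subgroup X} (h1 : E₁.IsSubnormal) (h2 : E₂.IsSubnormal) (i1 : Irr W E₁)
    (h12 : ¬ comS W E₁ ≤ comS W E₂) (hinv : ∀ g ∈ E₁, ∀ w ∈ comS W E₂, g • w ∈ comS W E₂) :
    (∀ a ∈ E₁, ∀ b ∈ E₂, a * b = b * a) ∧ E₁ ⊓ E₂ = ⊥ ∧ comS W E₁ ⊓ comS W E₂ = ⊥ := by
  have hbot : comS W E₁ ⊓ comS W E₂ = ⊥ := by
    rcases i1 (comS W E₁ ⊓ comS W E₂) inf_le_left (fun g hg u hu => ⟨comS_inv_mem hg hu.1, hinv g hg u hu.2⟩) with h | h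
    · exact h
    · exact absurd (by rw [← h]; exact inf_le_right) h12
  have htriv : ∀ g ∈ E₁, ∀ w ∈ comS W E₂, g • w = w := by
    intro g hg w hw
    have h3 : g • w - w ∈ comS W E₁ ⊓ comS W E₂ :=
      ⟨mem_comS hg w, AddSubgroup.sub_mem _ (hinv g hg w hw) hw⟩
    rw [hbot, AddSubgroup.mem_bot] at h3
    exact sub_eq_zero.mp h3
  refine ⟨?_, ?_, hbot⟩
  · intro a ha b hb
    have haS : a ∈ E₁ ⊔ E₂ := (le_sup_left : E₁ ≤ _) ha
    have hbS : b ∈ E₁ ⊔ E₂ := (le_sup_right : E₂ ≤ _) hb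
    have hz : a * b * a⁻¹ * b⁻¹ = 1 := by
      refine stab_triv hpW hf hO (H23.isSubnormal_sup h1 h2) (P := comS W E₂) ?_
        (Subgroup.mul_mem _ (Subgroup.mul_mem _ (Subgroup.mul_mem _ haS hbS) (Subgroup.inv_mem _ haS))
          (Subgroup.inv_mem _ hbS)) ⟨?_, ?_⟩
      · -- invariance
        let T : Subgroup X :=
          { carrier := {g | sm g (comS W E₂) = comS W E₂}
            mul_mem' := by
              intro x y hx hy
              show sm (x * y) _ = _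
              rw [sm_mul, (show sm y (comS W E₂) = _ from hy), (show sm x (comS W E₂) = _ from hx)]
            one_mem' := sm_one _
            inv_mem' := fun hx => sm_inv hx }
        have hT : E₁ ⊔ E₂ ≤ T := by
          refine sup_le ?_ ?_
          · intro g hg
            show sm g (comS W E₂) = comS W E₂
            apply le_antisymm
            · rintro _ ⟨u, hu, rfl⟩; exact hinv g hg u hu
            · intro u hu
              exact ⟨g⁻¹ • u, hinv _ (E₁.inv_mem hg) u hu, smul_inv_smul g u⟩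
          · exact fun g hg => sm_comS_self hg
        intro g hg u hu
        have h3 : sm g (comS W E₂) = comS W E₂ := hT hg
        rw [← h3]
        exact sm_mem hu
      · intro u hu
        have hbu : b⁻¹ • u ∈ comS W E₂ := comS_inv_mem (E₂.inv_mem hb) hu
        rw [mul_smul, mul_smul, mul_smul, htriv _ (E₁.inv_mem ha) _ hbu, smul_inv_smul, htriv a ha u hu]
      · intro w
        have e : (a * b * a⁻¹ * b⁻¹) • w - w =
            a • (b • (a⁻¹ • (b⁻¹ • w)) - a⁻¹ • (b⁻¹ • w)) + (b⁻¹ • w - w) := by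
          rw [mul_smul, mul_smul, mul_smul, smul_sub, smul_inv_smul a]; abel
        rw [e]
        refine AddSubgroup.add_mem _ (hinv a ha _ (mem_comS hb _)) (mem_comS (E₂.inv_mem hb) w)
    rw [mul_inv_eq_one, mul_inv_eq_iff_eq_mul] at hz
    exact hz
  · rw [eq_bot_iff]
    rintro g ⟨hg1, hg2⟩
    rw [Subgroup.mem_bot]
    exact faith_com hpW hf hO h2 hg2 (fun u hu => htriv g hg1 u hu)

theorem irr_cj {E : Subgroup X} (hE : Irr W E) (g : X) : Irr W (PGV.cj g E) := by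
  intro U hU hinv
  have h1 : sm g⁻¹ U ≤ comS W E := by
    rintro _ ⟨u, hu, rfl⟩
    have h2 := hU hu
    rw [← sm_comS] at h2
    obtain ⟨v, hv, rfl⟩ := h2
    show g⁻¹ • (g • v) ∈ comS W E
    rw [inv_smul_smul]; exact hv
  have h2 : ∀ x ∈ E, ∀ u ∈ sm g⁻¹ U, x • u ∈ sm g⁻¹ U := by
    rintro x hx _ ⟨u, hu, rfl⟩
    refine ⟨(g * x * g⁻¹) • u, hinv _ (cj_mem g hx) u hu, ?_⟩
    show g⁻¹ • ((g * x * g⁻¹) • u) = x • (g⁻¹ • u)
    rw [mul_smul, mul_smul, inv_smul_smul]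
  have h3 : U = sm g (sm g⁻¹ U) := by rw [← sm_mul, mul_inv_cancel, sm_one]
  rcases hE _ h1 h2 with h | h
  · left
    rw [h3, h]
    exact AddSubgroup.map_bot _
  · right
    rw [h3, h, sm_comS]

theorem subnormal_cj {E : Subgroup X} (hE : E.IsSubnormal) (g : X) : (PGV.cj g E).IsSubnormal :=
  hE.map (f := (MulAut.conj g).toMonoidHom) (MulAut.conj g).surjective

theorem sub_irr (hpW : ∀ w : W, p • w = 0) (hf : ∀ g : X, (∀ w : W, g • w = w) → g = 1) (hO : pCore p X = ⊥) :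
    ∀ (n : ℕ) (E₁ E₂ : Subgroup X), Nat.card ↥(E₁ ⊔ E₂) = n → E₁.IsSubnormal → E₂.IsSubnormal → Irr W E₁ → Irr W E₂ →
      ¬ comS W E₁ ≤ comS W E₂ → ¬ comS W E₂ ≤ comS W E₁ → 2 < Nat.card E₁ → 2 < Nat.card E₂ →
      (∀ a ∈ E₁, ∀ b ∈ E₂, a * b = b * a) ∧ E₁ ⊓ E₂ = ⊥ ∧ comS W E₁ ⊓ comS W E₂ = ⊥ := by
  intro n
  induction n using Nat.strong_induction_on with
  | _ n ih =>
  intro E₁ E₂ hn h1 h2 i1 i2 h12 h21 c1 c2
  by_cases hb : ∀ g ∈ E₁, ∀ w ∈ comS W E₂, g • w ∈ comS W E₂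
  · exact sub_case_b hpW hf hO h1 h2 i1 h12 hb
  by_cases hb' : ∀ g ∈ E₂, ∀ w ∈ comS W E₁, g • w ∈ comS W E₁
  · obtain ⟨a1, a2, a3⟩ := sub_case_b hpW hf hO h2 h1 i2 h21 hb'
    exact ⟨fun a ha b hb => (a1 b hb a ha).symm, by rw [inf_comm]; exact a2, by rw [inf_comm]; exact a3⟩
  exfalso
  -- application of the induction
  have ind : ∀ {E F : Subgroup X}, Nat.card ↥(E ⊔ F) = n → E.IsSubnormal → F.IsSubnormal → Irr W F →
      ¬ comS W E ≤ comS W F → 2 < Nat.card F → ∀ g ∈ E, sm g (comS W F) ≠ comS W F →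
        comS W F ⊓ sm g (comS W F) = ⊥ ∧ ∀ w ∈ comS W F, ∀ b ∈ F, b • (g • w) = g • w := by
    intro E F hn hE hF iF hEF cF g hg hne
    have hFS : F.subgroupOf (E ⊔ F) ≠ ⊤ := by
      intro htop
      have h3 : E ⊔ F ≤ F := by rwa [Subgroup.subgroupOf_eq_top] at htop
      apply hEF
      rw [comS_le]
      exact fun x hx w => mem_comS (h3 ((le_sup_left : E ≤ _) hx)) w
    obtain ⟨K, hK1, hK2, hK3⟩ := (hF.subgroupOf (K := E ⊔ F)).lt_normal.resolve_left hFS
    have hle : F ⊔ PGV.cj g F ≤ K.map (E ⊔ F).subtype := by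
      refine sup_le ?_ ?_
      · intro x hx
        have hxS : x ∈ E ⊔ F := (le_sup_right : F ≤ _) hx
        exact ⟨⟨x, hxS⟩, hK2 hx, rfl⟩
      · intro y hy
        obtain ⟨x, hx, rfl⟩ := mem_cj.mp hy
        have hxS : x ∈ E ⊔ F := (le_sup_right : F ≤ _) hx
        have hgS : g ∈ E ⊔ F := (le_sup_left : E ≤ _) hg
        exact ⟨⟨g, hgS⟩ * ⟨x, hxS⟩ * ⟨g, hgS⟩⁻¹, hK1.conj_mem _ (hK2 hx) _, rfl⟩
    have hlt : Nat.card ↥(F ⊔ PGV.cj g F) < n := by
      have h3 : Nat.card ↥(F ⊔ PGV.cj g F) ≤ Nat.card (K.map (E ⊔ F).subtype) :=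
        Nat.le_of_dvd Nat.card_pos (Subgroup.card_dvd_of_le hle)
      have h4 : Nat.card (K.map (E ⊔ F).subtype) = Nat.card K := map_card K
      have h5 : Nat.card K < Nat.card ↥(E ⊔ F) := by
        refine lt_of_le_of_ne (Nat.le_of_dvd Nat.card_pos (Subgroup.card_subgroup_dvd_card K)) ?_
        intro heq
        exact hK3.ne (Subgroup.eq_top_of_card_eq K heq)
      omega
    have hc : Nat.card (sm g (comS W F)) = Nat.card (comS W F) := by
      refine (Nat.card_congr ((comS W F).equivMapOfInjective _ ?_).toEquiv).symm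
      intro a b hab
      exact smul_left_cancel g hab
    have hne1 : ¬ comS W F ≤ comS W (PGV.cj g F) := by
      rw [← sm_comS]
      intro hle'
      exact hne (AddSubgroup.eq_of_le_of_card_ge hle' hc.le).symm
    have hne2 : ¬ comS W (PGV.cj g F) ≤ comS W F := by
      rw [← sm_comS]
      intro hle'
      exact hne (AddSubgroup.eq_of_le_of_card_ge hle' hc.ge)
    obtain ⟨a1, a2, a3⟩ := ih _ hlt F (PGV.cj g F) rfl hF (subnormal_cj hF g) iF (irr_cj iF g) hne1 hne2 cF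
      (by rw [FFS.card_cj]; exact cF)
    rw [← sm_comS] at a3
    refine ⟨a3, ?_⟩
    intro w hw b hb
    have hcjb : PGV.cj b (PGV.cj g F) = PGV.cj g F := by
      apply FFS.eq_of_cj_le
      intro y hy
      obtain ⟨x, hx, rfl⟩ := mem_cj.mp hy
      rw [a1 b hb x hx, mul_inv_cancel_right]
      exact hx
    have h3 : b • (g • w) ∈ sm g (comS W F) := by
      rw [sm_comS]
      apply FFS.smul_comS hcjb
      rw [← sm_comS]
      exact sm_mem hw
    have h4 : b • (g • w) - g • w ∈ comS W F ⊓ sm g (comS W F) :=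
      ⟨mem_comS hb _, AddSubgroup.sub_mem _ h3 (sm_mem hw)⟩
    rw [a3, AddSubgroup.mem_bot] at h4
    exact sub_eq_zero.mp h4
  have F2 := ind hn h1 h2 i2 h12 c2
  have F1 := ind (E := E₂) (F := E₁) (by rw [sup_comm]; exact hn) h2 h1 i1 h21 c1
  push Not at hb hb'
  obtain ⟨g, hg, w₀, hw₀, hgw₀⟩ := hb
  obtain ⟨f, hf', u₀, hu₀, hfu₀⟩ := hb'
  have hgm : sm g (comS W E₂) ≠ comS W E₂ := by
    intro h
    apply hgw₀
    rw [← h]
    exact sm_mem hw₀
  have hfm : sm f (comS W E₁) ≠ comS W E₁ := by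
    intro h
    apply hfu₀
    rw [← h]
    exact sm_mem hu₀
  have G1 : ∀ u ∈ comS W E₁, (∀ b ∈ E₂, b • u = u) → u = 0 := by
    intro u hu hub
    have h3 : u ∈ comS W E₁ ⊓ sm f (comS W E₁) := ⟨hu, ⟨u, hu, hub f hf'⟩⟩
    rw [(F1 f hf' hfm).1, AddSubgroup.mem_bot] at h3
    exact h3
  have key : ∀ x ∈ E₁, ∀ y ∈ E₁, sm x (comS W E₂) ≠ comS W E₂ → sm y (comS W E₂) ≠ comS W E₂ →
      ∀ w ∈ comS W E₂, x • w = y • w := by
    intro x hx y hy hxm hym w hw
    have h3 : x • w - y • w ∈ comS W E₁ := by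
      have : x • w - y • w = (x • w - w) - (y • w - w) := by abel
      rw [this]
      exact AddSubgroup.sub_mem _ (mem_comS hx w) (mem_comS hy w)
    have h4 := G1 _ h3 (fun b hb => by
      rw [smul_sub, (F2 x hx hxm).2 w hw b hb, (F2 y hy hym).2 w hw b hb])
    exact sub_eq_zero.mp h4
  have hN : ∀ x ∈ E₁, sm x (comS W E₂) = comS W E₂ → ∀ w ∈ comS W E₂, x • w = w := by
    intro x hx hxN w hw
    have h3 := key (g * x) (E₁.mul_mem hg hx) g hg (by rw [sm_mul, hxN]; exact hgm) hgm w hw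
    rw [mul_smul] at h3
    exact smul_left_cancel g h3
  have hN' : ∀ x ∈ E₁, sm x (comS W E₂) = comS W E₂ → ∀ w ∈ comS W E₂, x • (g • w) = g • w := by
    intro x hx hxN w hw
    have h3 := key (x * g) (E₁.mul_mem hx hg) g hg (by
      rw [sm_mul]
      intro h4
      apply hgm
      have h5 : sm x⁻¹ (sm x (sm g (comS W E₂))) = sm x⁻¹ (comS W E₂) := by rw [h4]
      rw [← sm_mul, inv_mul_cancel, sm_one, sm_inv hxN] at h5
      exact h5) hgm w hw
    rwa [mul_smul] at h3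
  have hgg : ∀ w ∈ comS W E₂, g • (g • w) = w := by
    intro w hw
    by_cases h3 : sm (g * g) (comS W E₂) = comS W E₂
    · rw [← mul_smul]
      exact hN (g * g) (E₁.mul_mem hg hg) h3 w hw
    · exfalso
      have h4 := key (g * g) (E₁.mul_mem hg hg) g hg h3 hgm w₀ hw₀
      rw [mul_smul] at h4
      have h5 := smul_left_cancel g h4
      rw [h5] at hgw₀
      exact hgw₀ hw₀
  have hx : ∀ x ∈ E₁, sm x (comS W E₂) ≠ comS W E₂ → sm (g⁻¹ * x) (comS W E₂) = comS W E₂ := by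
    intro x hx hxm
    have h3 : ∀ w ∈ comS W E₂, (g⁻¹ * x) • w = w := by
      intro w hw
      rw [mul_smul, inv_smul_eq_iff]
      exact key x hx g hg hxm hgm w hw
    apply le_antisymm
    · rintro _ ⟨u, hu, rfl⟩
      have h4 := h3 u hu
      show (g⁻¹ * x) • u ∈ _
      rw [h4]; exact hu
    · intro u hu
      exact ⟨u, hu, h3 u hu⟩
  have hDle : (comS W E₂).map (dl W g) ≤ comS W E₁ := by
    rintro _ ⟨w, hw, rfl⟩
    exact mem_comS hg w
  have hDinv : ∀ x ∈ E₁, ∀ u ∈ (comS W E₂).map (dl W g), x • u ∈ (comS W E₂).map (dl W g) := by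
    rintro x hxE _ ⟨w, hw, rfl⟩
    rw [dl_apply]
    by_cases h3 : sm x (comS W E₂) = comS W E₂
    · rw [smul_sub, hN x hxE h3 w hw, hN' x hxE h3 w hw]
      exact ⟨w, hw, rfl⟩
    · have h4 : x • w = g • w := key x hxE g hg h3 hgm w hw
      have h5 : x • (g • w) = w := by
        have h6 := hN' (g⁻¹ * x) (E₁.mul_mem (E₁.inv_mem hg) hxE) (hx x hxE h3) w hw
        rw [mul_smul, inv_smul_eq_iff] at h6
        rw [h6]
        exact hgg w hw
      rw [smul_sub, h4, h5]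
      have : w - g • w = -(g • w - w) := by abel
      rw [this]
      exact AddSubgroup.neg_mem _ ⟨w, hw, rfl⟩
  have hD : (comS W E₂).map (dl W g) = comS W E₁ := by
    rcases i1 _ hDle hDinv with h3 | h3
    · exfalso
      have h4 : g • w₀ - w₀ ∈ (comS W E₂).map (dl W g) := ⟨w₀, hw₀, rfl⟩
      rw [h3, AddSubgroup.mem_bot] at h4
      rw [sub_eq_zero.mp h4] at hgw₀
      exact hgw₀ hw₀
    · exact h3
  have hN1 : ∀ x ∈ E₁, sm x (comS W E₂) = comS W E₂ → x = 1 := by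
    intro x hxE hxN
    apply faith_com hpW hf hO h1 hxE
    intro u hu
    rw [← hD] at hu
    obtain ⟨w, hw, rfl⟩ := hu
    rw [dl_apply, smul_sub, hN x hxE hxN w hw, hN' x hxE hxN w hw]
  have hsub : (E₁ : Set X) ⊆ {1, g} := by
    intro x hxE
    by_cases h3 : sm x (comS W E₂) = comS W E₂
    · left; exact hN1 x hxE h3
    · right
      have h4 := hN1 _ (E₁.mul_mem (E₁.inv_mem hg) hxE) (hx x hxE h3)
      rw [inv_mul_eq_one] at h4
      exact h4.symm
  have hcard : Nat.card E₁ ≤ 2 := by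
    have h3 : (E₁ : Set X).ncard ≤ ({1, g} : Set X).ncard := Set.ncard_le_ncard hsub (Set.toFinite _)
    have h4 : ({1, g} : Set X).ncard ≤ 2 := by
      refine (Set.ncard_insert_le _ _).trans ?_
      rw [Set.ncard_singleton]
    have h5 : (E₁ : Set X).ncard = Nat.card E₁ := rfl
    omega
  omega

end main

end Cfsg.Agent.H19.FF
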