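import Mathlib
import Cfsg.Prelude.Def_Transfer
import Cfsg.Agent.H10.Basic
import Cfsg.Agent.H18.PCore

/-!
# basic facts about the Thompson subgroup
-/

set_option autoImplicit false
set_option linter.style.haveILetI false

namespace Cfsg.Agent.H19

open Subgroup Cfsg

theorem isElementaryAbelian_map {G G' : Type*} [Group G] [Group G'] {p : ℕ} (f : G →* G') {A : Subgroup G}
    (h : IsElementaryAbelian p A) : IsElementaryAbelian p (A.map f) := by
  refine ⟨⟨⟨?_⟩⟩, ?_⟩
  · rintro ⟨_, a, ha, rfl⟩ ⟨_, b, hb, rfl⟩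
    apply Subtype.ext
    show f a * f b = f b * f a
    rw [← map_mul, ← map_mul]
    exact congrArg f (congrArg Subtype.val (h.1.is_comm.comm ⟨a, ha⟩ ⟨b, hb⟩))
  · rintro _ ⟨a, ha, rfl⟩
    rw [← map_pow, h.2 a ha, map_one]

theorem maxElementaryAbelian_map_equiv {G G' : Type*} [Group G] [Group G'] {p : ℕ} (φ : G ≃* G')
    {A : Subgroup G} (h : A ∈ maxElementaryAbelianSubgroups p G) :
    A.map φ.toMonoidHom ∈ maxElementaryAbelianSubgroups p G' := by
  refine ⟨isElementaryAbelian_map _ h.1, fun B hB => ?_⟩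
  have h1 := h.2 (B.map φ.symm.toMonoidHom) (isElementaryAbelian_map _ hB)
  rw [H10.card_map_equiv] at h1 ⊢
  exact h1

theorem thompsonSubgroup_characteristic (p : ℕ) (G : Type*) [Group G] :
    (thompsonSubgroup p G).Characteristic :=
  H10.sSup_characteristic fun φ _ hK => maxElementaryAbelian_map_equiv φ hK

theorem thompsonSubgroup_map_equiv_le {G G' : Type*} [Group G] [Group G'] {p : ℕ} (φ : G ≃* G') :
    (thompsonSubgroup p G).map φ.toMonoidHom ≤ thompsonSubgroup p G' := by
  rw [Subgroup.map_le_iff_le_comap]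
  refine sSup_le fun A hA => ?_
  rw [← Subgroup.map_le_iff_le_comap]
  exact le_sSup (maxElementaryAbelian_map_equiv φ hA)

theorem thompsonSubgroup_map_equiv {G G' : Type*} [Group G] [Group G'] {p : ℕ} (φ : G ≃* G') :
    (thompsonSubgroup p G).map φ.toMonoidHom = thompsonSubgroup p G' := by
  refine le_antisymm (thompsonSubgroup_map_equiv_le φ) ?_
  intro y hy
  have h1 : φ.symm y ∈ thompsonSubgroup p G := thompsonSubgroup_map_equiv_le φ.symm ⟨y, hy, rfl⟩
  exact ⟨_, h1, by simp⟩

theorem thompsonSubgroupOf_le {G : Type*} [Group G] (p : ℕ) (P : Subgroup G) : thompsonSubgroupOf p P ≤ P :=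
  Subgroup.map_subtype_le _

/-- `J(P^φ) = J(P)^φ` -/
theorem thompsonSubgroupOf_map_equiv {G G' : Type*} [Group G] [Group G'] {p : ℕ} (φ : G ≃* G') (P : Subgroup G) :
    (thompsonSubgroupOf p P).map φ.toMonoidHom = thompsonSubgroupOf p (P.map φ.toMonoidHom) := by
  unfold thompsonSubgroupOf
  change _ = Subgroup.map (P.map (φ : G →* G')).subtype (thompsonSubgroup p ↥(P.map (φ : G →* G')))
  rw [← thompsonSubgroup_map_equiv (φ.subgroupMap P), Subgroup.map_map, Subgroup.map_map]
  rfl

theorem normalizer_le_normalizer_thompson {G : Type*} [Group G] (p : ℕ) (P : Subgroup G) :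
    normalizer (P : Set G) ≤ normalizer (thompsonSubgroupOf p P : Set G) := by
  haveI := thompsonSubgroup_characteristic p P
  exact H18.le_normalizer_map_of_characteristic le_rfl _

end Cfsg.Agent.H19
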